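import Cfsg.Agent.Leech.HSPair

/-!
# Orthogonal pairs of minimal vectors
-/

set_option autoImplicit false

namespace Cfsg.Agent.Leech

open Cfsg

/-- A pair of orthogonal minimal vectors is carried to a standard one: `v + w = 8e_∞`, `v - w = 8e_0`. -/
theorem orth_std (v w : leechLattice) (hv : sqNorm (v : GolayPt → ℤ) = 32) (hw : sqNorm (w : GolayPt → ℤ) = 32)
    (hd : dotInt (v : GolayPt → ℤ) (w : GolayPt → ℤ) = 0) :
    ∃ g : Co0, g • (v + w) = e8 none ∧ g • (v - w) = e8 pz := by
  have h1 : sqNorm ((v + w : leechLattice) : GolayPt → ℤ) = 64 := by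
    rw [AddSubgroup.coe_add, sqNorm_add, hv, hw, hd]; norm_num
  obtain ⟨g, hg⟩ := trans_64 (v + w) (e8 none) h1 (norm_e8 none)
  -- `g (v - w)` is in the standard cross
  have h2 : ((v - w : leechLattice) : GolayPt → ℤ) ∈ cross ((v + w : leechLattice) : GolayPt → ℤ) := by
    refine ⟨(v - w : leechLattice).2, ?_, w, w.2, ?_⟩
    · rw [h1, AddSubgroup.coe_sub, sqNorm_sub, hv, hw, hd]; norm_num
    · rw [AddSubgroup.coe_sub, AddSubgroup.coe_add, two_smul]; abel
  have h3 := smul_mem_cross g h2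
  rw [hg, show e8 none = eightVec from rfl, ← stdCross_eq] at h3
  obtain ⟨j, hj⟩ := (mem_stdCross_iff _).1 h3
  -- orthogonality
  have h4 : dotInt ((v + w : leechLattice) : GolayPt → ℤ) ((v - w : leechLattice) : GolayPt → ℤ) = 0 := by
    rw [AddSubgroup.coe_sub, AddSubgroup.coe_add, dotInt_add_left, dotInt_comm (v : GolayPt → ℤ),
      dotInt_comm (w : GolayPt → ℤ), sub_eq_add_neg, dotInt_add_left, dotInt_add_left]
    have e1 : dotInt (-(w : GolayPt → ℤ)) (v : GolayPt → ℤ) = -dotInt (v : GolayPt → ℤ) (w : GolayPt → ℤ) := by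
      rw [dotInt_comm (v : GolayPt → ℤ)]
      unfold dotInt
      rw [← Finset.sum_neg_distrib]
      exact Finset.sum_congr rfl (fun i _ => by rw [Pi.neg_apply]; ring)
    have e2 : dotInt (-(w : GolayPt → ℤ)) (w : GolayPt → ℤ) = -sqNorm (w : GolayPt → ℤ) := by
      rw [← dotInt_self]
      unfold dotInt
      rw [← Finset.sum_neg_distrib]
      exact Finset.sum_congr rfl (fun i _ => by rw [Pi.neg_apply]; ring)
    rw [e1, e2, dotInt_self, hv, hw, hd]; norm_num
  have h5 := co0_dot g (v + w) (v - w)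
  rw [h4, hg] at h5
  have hjn : j ≠ none := by
    rintro rfl
    rcases hj with hj | hj
    · rw [hj, dotInt_self, norm_e8] at h5; norm_num at h5
    · rw [hj, AddSubgroup.coe_neg] at h5
      have e3 : dotInt (e8 none : GolayPt → ℤ) (-(e8 none : GolayPt → ℤ)) = -64 := by
        rw [dotInt_comm]
        have : dotInt (-(e8 none : GolayPt → ℤ)) (e8 none : GolayPt → ℤ) = -sqNorm (e8 none : GolayPt → ℤ) := by
          rw [← dotInt_self]
          unfold dotInt
          rw [← Finset.sum_neg_distrib]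
          exact Finset.sum_congr rfl (fun i _ => by rw [Pi.neg_apply]; ring)
        rw [this, norm_e8]
      rw [e3] at h5; norm_num at h5
  -- a permutation fixing `∞` and moving `j` to `0`
  obtain ⟨σ, hσ, s0, s1⟩ := M24_two (Ne.symm hjn) (show (none : GolayPt) ≠ pz by decide)
  have perm_e8 : ∀ i, permElt σ hσ • e8 i = e8 (σ i) := by
    intro i
    apply Subtype.ext; funext k
    rw [permElt_apply, e8_apply, e8_apply]
    by_cases hk : k = σ i
    · rw [if_pos hk, hk, Equiv.symm_apply_apply, if_pos rfl]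
    · rw [if_neg hk, if_neg]
      intro h; exact hk (by rw [← h, Equiv.apply_symm_apply])
  rcases hj with hj | hj
  · refine ⟨permElt σ hσ * g, ?_, ?_⟩
    · rw [mul_smul, hg, perm_e8, s0]
    · rw [mul_smul, hj, perm_e8, s1]
  · obtain ⟨c, hc, h6, h7⟩ := exists_code_sep (i := pz) (by decide)
    refine ⟨flipElt c hc * (permElt σ hσ * g), ?_, ?_⟩
    · rw [mul_smul, mul_smul, hg, perm_e8, s0]
      apply Subtype.ext; funext k
      rw [flipElt_apply, e8_apply]
      by_cases hk : k = none
      · rw [hk, h7, if_pos rfl]; norm_num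
      · rw [if_neg hk, mul_zero]
    · rw [mul_smul, mul_smul, hj, co0_neg, perm_e8, s1]
      apply Subtype.ext; funext k
      rw [flipElt_apply, AddSubgroup.coe_neg, Pi.neg_apply, e8_apply]
      by_cases hk : k = pz
      · rw [hk, h6, if_pos rfl]; norm_num
      · rw [if_neg hk]; ring

/-- `Co0` is transitive on ordered pairs of orthogonal minimal vectors. -/
theorem trans_orth (v w v' w' : leechLattice) (hv : sqNorm (v : GolayPt → ℤ) = 32)
    (hw : sqNorm (w : GolayPt → ℤ) = 32) (hv' : sqNorm (v' : GolayPt → ℤ) = 32)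
    (hw' : sqNorm (w' : GolayPt → ℤ) = 32)
    (hd : dotInt (v : GolayPt → ℤ) (w : GolayPt → ℤ) = 0) (hd' : dotInt (v' : GolayPt → ℤ) (w' : GolayPt → ℤ) = 0) :
    ∃ g : Co0, g • v = v' ∧ g • w = w' := by
  obtain ⟨g, g1, g2⟩ := orth_std v w hv hw hd
  obtain ⟨h, h1, h2⟩ := orth_std v' w' hv' hw' hd'
  have e1 : (h⁻¹ * g) • (v + w) = v' + w' := by rw [mul_smul, g1, ← h1, inv_smul_smul]
  have e2 : (h⁻¹ * g) • (v - w) = v' - w' := by rw [mul_smul, g2, ← h2, inv_smul_smul]
  rw [co0_add] at e1
  rw [co0_sub] at e2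
  have e3 := congrArg Subtype.val e1
  have e4 := congrArg Subtype.val e2
  refine ⟨h⁻¹ * g, ?_, ?_⟩
  · apply Subtype.ext; funext i
    have a := congrFun e3 i
    have b := congrFun e4 i
    simp only [AddSubgroup.coe_add, AddSubgroup.coe_sub, Pi.add_apply, Pi.sub_apply] at a b
    omega
  · apply Subtype.ext; funext i
    have a := congrFun e3 i
    have b := congrFun e4 i
    simp only [AddSubgroup.coe_add, AddSubgroup.coe_sub, Pi.add_apply, Pi.sub_apply] at a b
    omega

end Cfsg.Agent.Leech
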